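import Mathlib
import Cfsg.Agent.Lib.Helper33.Breadth.Defs

/-!
# S3777 project "BREADTH": package [CHIEFK]
-/

set_option autoImplicit false

namespace Cfsg.Agent.Lib.Helper84.Breadth

open Cfsg.Agent.Lib.Helper33.Breadth
open scoped commutatorElement

universe u

theorem pkgChiefK : PkgChiefK.{u} := by
  intro G _ _ p _ hG N K hN hK hKN
  have hp : p.Prime := Fact.out
  haveI := hN
  haveI := hK
  obtain ⟨H, hHdef⟩ : ∃ H : Subgroup G, H = ⁅N, (⊤ : Subgroup G)⁆ ⊔ K := ⟨_, rfl⟩
  have hcomN : ⁅N, (⊤ : Subgroup G)⁆ ≤ N := Subgroup.commutator_le_left N ⊤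
  have hcomH : ⁅N, (⊤ : Subgroup G)⁆ ≤ H := by rw [hHdef]; exact le_sup_left
  have hKH : K ≤ H := by rw [hHdef]; exact le_sup_right
  have hHN : H ≤ N := by rw [hHdef]; exact sup_le hcomN hKN.le
  have hHne : H ≠ N := by
    intro hEq
    haveI : Group.IsNilpotent G := hG.isNilpotent
    obtain ⟨n, hn⟩ := Subgroup.nilpotent_iff_lowerCentralSeries.mp (inferInstance : Group.IsNilpotent G)
    have key : ∀ i, N ≤ (⊤ : Subgroup G).lowerCentralSeries i ⊔ K := by
      intro i
      induction i with
      | zero => simp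
      | succ i ih =>
        have h1 : ⁅N, (⊤ : Subgroup G)⁆ ≤ (⊤ : Subgroup G).lowerCentralSeries (i + 1) ⊔ K := by
          rw [Subgroup.commutator_le]
          intro x hx g _
          have hx' := ih hx
          obtain ⟨a, ha, k, hk, rfl⟩ := Subgroup.mem_sup_of_normal_right.mp hx'
          have e : ⁅a * k, g⁆ = (a * (k * (g * k⁻¹ * g⁻¹)) * a⁻¹) * ⁅a, g⁆ := by
            rw [commutatorElement_def, commutatorElement_def]; group
          rw [e]
          apply Subgroup.mul_mem
          · apply Subgroup.mem_sup_right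
            apply hK.conj_mem
            exact K.mul_mem hk (hK.conj_mem _ (K.inv_mem hk) g)
          · apply Subgroup.mem_sup_left
            rw [Subgroup.lowerCentralSeries_succ]
            exact Subgroup.commutator_mem_commutator ha (Subgroup.mem_top g)
        calc N = H := hEq.symm
          _ ≤ _ := by rw [hHdef]; exact sup_le h1 le_sup_right
    have h2 := key n
    rw [hn, bot_sup_eq] at h2
    exact absurd (lt_of_lt_of_le hKN h2) (lt_irrefl _)
  have hPN : IsPGroup p N := hG.to_subgroup N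
  obtain ⟨n', hn'⟩ := hPN.exists_card_eq
  obtain ⟨k, hk⟩ := (hG.to_subgroup H).exists_card_eq
  have hcardlt : Nat.card H < Nat.card N := by
    by_contra hge
    push_neg at hge
    exact hHne (Subgroup.eq_of_le_of_card_ge hHN hge)
  have hkn : k < n' := by
    rw [hk, hn'] at hcardlt
    exact (Nat.pow_lt_pow_iff_right hp.one_lt).mp hcardlt
  have hH'card : Nat.card (H.subgroupOf N) = p ^ k := by
    rw [← hk]
    exact Nat.card_congr (Subgroup.subgroupOfEquivOfLe hHN).toEquiv
  have hdvd : p ^ (n' - 1) ∣ Nat.card N := by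
    rw [hn']; exact pow_dvd_pow p (by omega)
  obtain ⟨R', hR'card, hHR'⟩ :=
    Sylow.exists_subgroup_card_pow_prime_le p hdvd (H.subgroupOf N) hH'card (by omega)
  obtain ⟨R, hRdef⟩ : ∃ R : Subgroup G, R = R'.map N.subtype := ⟨_, rfl⟩
  have hRN : R ≤ N := by rw [hRdef]; exact Subgroup.map_subtype_le R'
  have hHR : H ≤ R := by
    intro h hh
    have h1 : (⟨h, hHN hh⟩ : N) ∈ H.subgroupOf N := by
      rw [Subgroup.mem_subgroupOf]; exact hh
    rw [hRdef]
    exact ⟨⟨h, hHN hh⟩, hHR' h1, rfl⟩
  have hRsub : R.subgroupOf N = R' := by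
    rw [hRdef]
    exact Subgroup.comap_map_eq_self_of_injective (Subgroup.subtype_injective N) R'
  have hRne : R ≠ N := by
    intro hEq
    have h1 : R' = ⊤ := by rw [← hRsub, hEq]; exact Subgroup.subgroupOf_self N
    rw [h1, Subgroup.card_top, hn'] at hR'card
    have h2 := (Nat.pow_right_injective hp.two_le) hR'card
    omega
  have hcomR : ⁅N, (⊤ : Subgroup G)⁆ ≤ R := hcomH.trans hHR
  have hRnorm : R.Normal := by
    constructor
    intro r hr g
    have e : g * r * g⁻¹ = (⁅r, g⁆)⁻¹ * r := by rw [commutatorElement_def]; group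
    rw [e]
    exact R.mul_mem (R.inv_mem (hcomR
      (Subgroup.commutator_mem_commutator (hRN hr) (Subgroup.mem_top g)))) hr
  refine ⟨R, hRnorm, hKH.trans hHR, lt_of_le_of_ne hRN hRne, ?_, ?_⟩
  · intro a ha g
    have e : a * g * a⁻¹ * g⁻¹ = ⁅a, g⁆ := (commutatorElement_def a g).symm
    rw [e]
    exact hcomR (Subgroup.commutator_mem_commutator ha (Subgroup.mem_top g))
  · intro a ha
    haveI := hRnorm
    have hidx : Nat.card (↥N ⧸ R.subgroupOf N) = p := by
      rw [← Subgroup.index_eq_card, hRsub]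
      have h1 := Subgroup.card_mul_index R'
      rw [hR'card, hn'] at h1
      have h2 : p ^ n' = p ^ (n' - 1) * p := by
        rw [← pow_succ]; congr 1; omega
      rw [h2] at h1
      exact Nat.eq_of_mul_eq_mul_left (pow_pos hp.pos _) h1
    have h1 : ((⟨a, ha⟩ : N) : ↥N ⧸ R.subgroupOf N) ^ p = 1 := by
      rw [← hidx]; exact pow_card_eq_one'
    rw [← QuotientGroup.mk_pow, QuotientGroup.eq_one_iff, Subgroup.mem_subgroupOf] at h1
    simpa using h1

end Cfsg.Agent.Lib.Helper84.Breadth
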